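import Cfsg.Agent.Lib.Helper35.ONN57.PChk0

namespace Cfsg.Agent.Lib.Helper35.ONN57

open Cfsg.Agent.Lib.Helper35

theorem hsub : allBelow (fixAll sl) 1 = true := by decide +kernel

noncomputable def permData : PermData PresONN.cc.C PresONN.cc.inv PresONN.R S 56 where
  pt := pt
  hinvC := PresONN.hinvC
  hinv2 := PresONN.hinv2
  hinvE := PresONN.hinvE
  hchk := by
    intro c hc
    have hc' : c < 6 := hc
    interval_cases c
    exacts [c0u0, c1u0, c2u0, c3u0, c4u0, c5u0]
  hrel := fix_of_leaves' rl 57 ru0
  hsub := fun b hb => fix_of_leaves sl 1 hsub b hb 0 (by decide)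
  hRC := PresONN.hRC
  hSC := by decide +kernel
  tp := tp
  cK := 8
  htree := tu0


noncomputable def orbData : OrbData permData where
  sl := sl
  hsl := rfl
  ot := ot
  db := 4
  rep := rep
  hchk := allBelow_of_forall _ _ ou0

theorem ocnt0 : countBelow (fun j => Nat.beq (orbData.lab j) 0) 57 = 1 := l0n0
theorem orep0 : orbData.lab (orbData.rep 0) = 0 := by decide +kernel
theorem ocnt1 : countBelow (fun j => Nat.beq (orbData.lab j) 1) 57 = 56 := l1n0
theorem orep1 : orbData.lab (orbData.rep 1) = 1 := by decide +kernel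
end Cfsg.Agent.Lib.Helper35.ONN57
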